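import Cfsg.Agent.H403.HermTor
import Cfsg.Agent.H183.SemisSU
import Cfsg.Agent.LieClassical.HermSiegel
import Cfsg.Agent.ClassicalGeometry.HermParabolic

/-!
# `SU_3(q)`: the torus of order `q² - q + 1`, characteristic polynomials (helper560, for S3442)

* `exists_orderN` : an element of order `q² - q + 1` (`3 ∤ q + 1`);
* `charpoly_eq` : the characteristic polynomial is determined by the trace;
* `isConj_of_trace` : elements without eigenvectors are determined up to conjugacy by their trace.
-/

set_option autoImplicit false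

namespace Cfsg.Agent.H560.CV

open Polynomial Matrix Cfsg Cfsg.Agent.H183.Semis Cfsg.Agent.H186 Cfsg.Agent.LieClassical.HermSiegel
open Cfsg.Agent.ClassicalGeometry.GUBasic

/-! ### the characteristic polynomial of a `3 × 3` matrix -/

theorem charpoly_three {R : Type*} [CommRing R] (M : Matrix (Fin 3) (Fin 3) R) :
    M.charpoly = X ^ 3 - C M.trace * X ^ 2 + C M.adjugate.trace * X - C M.det := by
  unfold Matrix.charpoly
  rw [Matrix.det_fin_three, Matrix.trace_fin_three, Matrix.trace_fin_three, Matrix.adjugate_fin_three,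
    Matrix.det_fin_three]
  simp only [Matrix.charmatrix_apply, Fin.isValue,
    Matrix.of_apply, Matrix.cons_val', Matrix.cons_val_zero, Matrix.cons_val_one, Matrix.cons_val_two,
    Matrix.cons_val_fin_one, Matrix.head_cons, Matrix.tail_cons, zero_ne_one, one_ne_zero,
    Matrix.diagonal]
  simp
  ring

section field

variable {F : Type*} [Field F] {q : ℕ}

/-- a matrix whose characteristic polynomial is irreducible: polynomials in it are invertible or zero -/
theorem pow_eq_one_of_irreducible {n : ℕ} {A : Matrix (Fin n) (Fin n) F} (hirr : Irreducible A.charpoly) (p : ℕ)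
    [Fact p.Prime] [CharP F p] {k : ℕ} (h : A ^ (k * p) = 1) : A ^ k = 1 := by
  have hn : Nontrivial (Matrix (Fin n) (Fin n) F) := by
    rcases Nat.eq_zero_or_pos n with rfl | hn
    · exfalso
      apply hirr.not_isUnit
      rw [Matrix.charpoly, Matrix.det_isEmpty]
      exact isUnit_one
    · have : Nonempty (Fin n) := ⟨⟨0, hn⟩⟩
      infer_instance
  have : CharP (Matrix (Fin n) (Fin n) F) p := by
    rcases Nat.eq_zero_or_pos n with rfl | hn
    · exact absurd (Subsingleton.elim (0 : Matrix (Fin 0) (Fin 0) F) 1) zero_ne_one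
    · have : Nonempty (Fin n) := ⟨⟨0, hn⟩⟩
      infer_instance
  have h0 : (A ^ k - 1) ^ p = 0 := by
    rw [sub_pow_char_of_commute _ (Commute.one_right _), ← pow_mul, h, one_pow, sub_self]
  by_cases hd : A.charpoly ∣ X ^ k - 1
  · obtain ⟨g, hg⟩ := hd
    have h1 := congrArg (aeval A) hg
    rw [map_mul, Matrix.aeval_self_charpoly, zero_mul, map_sub, map_pow, aeval_X, map_one, sub_eq_zero] at h1
    exact h1
  · exfalso
    obtain ⟨a, b, hab⟩ := (hirr.coprime_iff_not_dvd (n := X ^ k - 1)).2 hd
    have h1 := congrArg (aeval A) hab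
    rw [map_add, map_mul, Matrix.aeval_self_charpoly, mul_zero, zero_add, map_mul, map_sub, map_pow, aeval_X, map_one] at h1
    have h2 : Commute ((aeval A) b) (A ^ k - 1) := by
      have : A ^ k - 1 = aeval A (X ^ k - 1 : F[X]) := by simp
      rw [this]
      exact (Commute.all b (X ^ k - 1)).map (aeval A)
    have h3 := h2.mul_pow p
    rw [h1, one_pow, h0, mul_zero] at h3
    exact one_ne_zero h3

variable [Fintype F]

/-- the inverse of an element of `SU` -/
theorem st_mat (hF : Fintype.card F = q ^ 2) {n : ℕ} (g : SU n F q) : st q (mat g) * mat g = 1 := by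
  have h1 : ((g : Matrix.SpecialLinearGroup (Fin n) F) : GL (Fin n) F) ∈ Cfsg.GU n F q := g.2
  exact (mem_GU_iff_st hF _).1 h1

/-- **the characteristic polynomial of an element of `SU_3(q)`** -/
theorem charpoly_eq (hF : Fintype.card F = q ^ 2) (g : SU 3 F q) :
    (mat g).charpoly = X ^ 3 - C (mat g).trace * X ^ 2 + C ((mat g).trace ^ q) * X - 1 := by
  have hdet : (mat g).det = 1 := det_mat g
  have hadj : (mat g).adjugate = st q (mat g) := by
    have h1 := st_mat hF g
    have h2 : mat g * (mat g).adjugate = 1 := by rw [Matrix.mul_adjugate, hdet, one_smul]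
    calc (mat g).adjugate = st q (mat g) * mat g * (mat g).adjugate := by rw [h1, one_mul]
      _ = st q (mat g) := by rw [mul_assoc, h2, mul_one]
  have htr : (st q (mat g)).trace = (mat g).trace ^ q := by
    obtain ⟨σ, hσ⟩ := exists_powHom hF
    simp only [Matrix.trace_fin_three, st_apply]
    rw [← hσ, ← hσ, ← hσ, ← map_add, ← map_add, hσ]
  rw [charpoly_three, hadj, htr, hdet, C_1]

/-- **conjugacy in `SU_3(q)` of elements without eigenvectors** -/
theorem isConj_of_trace (hF : Fintype.card F = q ^ 2) (p : ℕ) [Fact p.Prime] [CharP F p] (g h : SU 3 F q)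
    (htr : (mat g).trace = (mat h).trace) (hno : ∀ (c : F) (v : Fin 3 → F), act g v = c • v → v = 0) :
    IsConj g h := by
  have hcp : (mat g).charpoly = (mat h).charpoly := by rw [charpoly_eq hF, charpoly_eq hF, htr]
  have hirr : Irreducible (mat g).charpoly := by
    apply Polynomial.irreducible_of_degree_le_three_of_not_isRoot
    · rw [Matrix.charpoly_natDegree_eq_dim, Fintype.card_fin]; decide
    · intro c hc
      rw [Polynomial.IsRoot.def, Matrix.eval_charpoly] at hc
      obtain ⟨v, hv, h1⟩ := Matrix.exists_mulVec_eq_zero_iff.2 hc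
      apply hv
      apply hno c v
      rw [Matrix.sub_mulVec, sub_eq_zero] at h1
      rw [act_def, ← h1]
      simp
  have key : ∀ x : SU 3 F q, Irreducible (mat x).charpoly → (orderOf x).Coprime p := by
    intro x hx
    rw [Nat.coprime_comm, (Fact.out : p.Prime).coprime_iff_not_dvd]
    rintro ⟨k, hk⟩
    have hpow : ∀ k, mat (x ^ k) = mat x ^ k := by
      intro k
      induction k with
      | zero => rw [pow_zero, pow_zero, mat_one]
      | succ k ih => rw [pow_succ, pow_succ, mat_mul, ih]
    have h1 : mat x ^ (k * p) = 1 := by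
      rw [mul_comm, ← hk, ← hpow, pow_orderOf_eq_one, mat_one]
    have h2 := pow_eq_one_of_irreducible hx p h1
    have h3 : x ^ k = 1 := mat_injective (by rw [hpow, h2, mat_one])
    have h4 : orderOf x ∣ k := orderOf_dvd_of_pow_eq_one h3
    have h5 : 0 < orderOf x := orderOf_pos x
    have h6 : 0 < k := by
      rcases Nat.eq_zero_or_pos k with rfl | h
      · rw [mul_zero] at hk; omega
      · exact h
    have h7 := Nat.le_of_dvd h6 h4
    have h8 := (Fact.out : p.Prime).two_le
    rw [hk] at h7
    nlinarith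
  exact su_isConj hF p g h (key g hirr) (key h (hcp ▸ hirr)) hcp

/-- **the torus of order `q² - q + 1`** -/
theorem exists_orderN (hF : Fintype.card F = q ^ 2) (h3 : ¬ 3 ∣ q + 1) :
    ∃ x : SU 3 F q, orderOf x = q ^ 2 - q + 1 := by
  have hq := two_le hF
  obtain ⟨k, rfl⟩ := Nat.exists_eq_add_of_le hq
  have hN : (2 + k) ^ 2 - (2 + k) + 1 = k ^ 2 + 3 * k + 3 := by
    have : (2 + k) ^ 2 = (2 + k) + (k ^ 2 + 3 * k + 2) := by ring
    rw [this, Nat.add_sub_cancel_left]
  rw [hN]
  have hcop : Nat.Coprime (k ^ 2 + 3 * k + 3) (2 + k + 1) := by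
    have h1 : k ^ 2 + 3 * k + 3 = 3 + (2 + k + 1) * k := by ring
    rw [h1, Nat.coprime_add_mul_left_left]
    exact (Nat.Prime.coprime_iff_not_dvd Nat.prime_three).2 h3
  obtain ⟨M, hM, ho⟩ := Cfsg.Agent.H403.hElt_odd (i := 3) (N := k ^ 2 + 3 * k + 3) hF (by decide)
    ⟨k + 3, by ring⟩
  have hpres : ∀ u v : Fin 3 → F, hermForm 3 F (2 + k) (M *ᵥ u) (M *ᵥ v) = hermForm 3 F (2 + k) u v :=
    (ClassicalGeometry.HermParabolic.preserves_iff hF M).2 hM
  have hMN : M ^ (k ^ 2 + 3 * k + 3) = 1 := by rw [← ho]; exact pow_orderOf_eq_one M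
  have hdN : M.det ^ (k ^ 2 + 3 * k + 3) = 1 := by rw [← Matrix.det_pow, hMN, Matrix.det_one]
  have hdq := ClassicalGeometry.GUBasic.det_pow hF hpres
  have hd : M.det = 1 := by
    have h1 : orderOf M.det ∣ Nat.gcd (k ^ 2 + 3 * k + 3) (2 + k + 1) :=
      Nat.dvd_gcd (orderOf_dvd_of_pow_eq_one hdN) (orderOf_dvd_of_pow_eq_one hdq)
    rw [hcop, Nat.dvd_one, orderOf_eq_one_iff] at h1
    exact h1
  let A : Cfsg.SU 3 F (2 + k) := ⟨⟨M, hd⟩, hpres⟩
  refine ⟨A, ?_⟩
  have hpow : ∀ k', A ^ k' = 1 ↔ M ^ k' = 1 := by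
    intro k'
    have hpow' : mat (A ^ k') = M ^ k' := by
      induction k' with
      | zero => rw [pow_zero, pow_zero, mat_one]
      | succ k' ih => rw [pow_succ, pow_succ, mat_mul, ih]; rfl
    constructor
    · intro h; rw [← hpow', h, mat_one]
    · intro h; exact mat_injective (by rw [hpow', h, mat_one])
  rw [← ho]
  exact orderOf_eq_orderOf_iff.2 hpow

end field

end Cfsg.Agent.H560.CV
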